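import Mathlib
import Cfsg.Agent.Lib.Helper5.SpPerfect

/-! Definitions for the minimal index of `PSp_{2m}(q)`, `q ≥ 3` (S2141). -/

set_option autoImplicit false

namespace Cfsg.Agent.Lib.Helper14.MinSp

open Matrix Cfsg.Agent.Lib.Helper13 Cfsg.Agent.Lib.Helper5

/-- The number of points of the symplectic space of dimension `2m` over `F_q`. -/
def NN (q m : ℕ) : ℕ := (q ^ (2 * m) - 1) / (q - 1)

variable {F : Type*} [Field F] {m : ℕ}

/-- For `u ⊥ w` this is `x ↦ x + (x,u) w + (x,w) u + a (x,u) u`. -/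
def sieg (u w : Fin m ⊕ Fin m → F) (a : F) : Matrix.symplecticGroup (Fin m) F :=
  tv (u + w) 1 * tv u (-1) * tv w (-1) * tv u a

/-- The abstract structure of the stabiliser `P = Q ⋊ (T × L₁)` of a point of the symplectic space
of dimension `2m+2`: `rho w a` runs over `Q`, `tor` is the torus `T`, `eps` the Levi factor
`L₁ = Sp_{2m}`. -/
structure Loc (m : ℕ) (F : Type*) [Field F] (P : Type*) [Group P] where
  rho : (Fin m ⊕ Fin m → F) → F → P
  tor : Fˣ →* P
  eps : Matrix.symplecticGroup (Fin m) F →* P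
  rho_mul : ∀ w a w' a', rho w a * rho w' a' = rho (w + w') (a + a' + Cfsg.sympForm m F w' w)
  eps_rho : ∀ l w a, eps l * rho w a = rho (l.1 *ᵥ w) a * eps l
  tor_rho : ∀ (t : Fˣ) w a, tor t * rho w a = rho ((t : F) • w) ((t : F) ^ 2 * a) * tor t
  tor_eps : ∀ t l, tor t * eps l = eps l * tor t
  exists_dec : ∀ g : P, ∃ w a t l, g = rho w a * tor t * eps l
  dec_inj : ∀ w a t l, rho w a * tor t * eps l = 1 → w = 0 ∧ a = 0 ∧ t = 1 ∧ l = 1

namespace Loc

variable {P : Type*} [Group P] (L : Loc m F P)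

lemma rho_zero : L.rho 0 0 = 1 := by
  have h := L.rho_mul 0 0 0 0
  simp only [add_zero, sympForm_zero_left] at h
  exact mul_eq_left.mp h

lemma rho_inv (w : Fin m ⊕ Fin m → F) (a : F) : (L.rho w a)⁻¹ = L.rho (-w) (-a) := by
  rw [inv_eq_iff_mul_eq_one, L.rho_mul, sympForm_neg_left, sympForm_self]
  simp [L.rho_zero]

/-- `A = {a | rho 0 a ∈ S}`. -/
def A (S : Subgroup P) : AddSubgroup F where
  carrier := {a | L.rho 0 a ∈ S}
  zero_mem' := by simp [L.rho_zero, S.one_mem]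
  add_mem' {a b} ha hb := by
    have h := S.mul_mem ha hb
    rw [L.rho_mul, sympForm_zero_left] at h
    simpa using h
  neg_mem' {a} ha := by
    have h := S.inv_mem ha
    rw [L.rho_inv] at h
    simpa using h

/-- `B̄ = {w | ∃ a, rho w a ∈ S}`. -/
def Bb (S : Subgroup P) : AddSubgroup (Fin m ⊕ Fin m → F) where
  carrier := {w | ∃ a, L.rho w a ∈ S}
  zero_mem' := ⟨0, by simp [L.rho_zero, S.one_mem]⟩
  add_mem' := by
    rintro w w' ⟨a, ha⟩ ⟨b, hb⟩
    have h := S.mul_mem ha hb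
    rw [L.rho_mul] at h
    exact ⟨_, h⟩
  neg_mem' := by
    rintro w ⟨a, ha⟩
    have h := S.inv_mem ha
    rw [L.rho_inv] at h
    exact ⟨_, h⟩

/-- `S₁ = {l | ∃ w a, rho w a * eps l ∈ S}`: the image in `L₁` of the vector stabiliser in `S`. -/
def S1 (S : Subgroup P) : Subgroup (Matrix.symplecticGroup (Fin m) F) where
  carrier := {l | ∃ w a, L.rho w a * L.eps l ∈ S}
  one_mem' := ⟨0, 0, by simp [L.rho_zero, S.one_mem]⟩
  mul_mem' := by
    rintro l l' ⟨w, a, h⟩ ⟨w', a', h'⟩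
    have h2 := S.mul_mem h h'
    rw [mul_assoc, ← mul_assoc (L.eps l), L.eps_rho, mul_assoc, ← map_mul, ← mul_assoc,
      L.rho_mul] at h2
    exact ⟨_, _, h2⟩
  inv_mem' := by
    rintro l ⟨w, a, h⟩
    have h2 := S.inv_mem h
    rw [_root_.mul_inv_rev, L.rho_inv, ← map_inv, L.eps_rho] at h2
    exact ⟨_, _, h2⟩

/-- `Λ = {t | ∃ w a l, rho w a * tor t * eps l ∈ S}`: the group of eigenvalues of `S`. -/
def Lam (S : Subgroup P) : Subgroup Fˣ where
  carrier := {t | ∃ w a l, L.rho w a * L.tor t * L.eps l ∈ S}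
  one_mem' := ⟨0, 0, 1, by simp [L.rho_zero, S.one_mem]⟩
  mul_mem' := by
    rintro t t' ⟨w, a, l, h⟩ ⟨w', a', l', h'⟩
    have h2 := S.mul_mem h h'
    have e : L.rho w a * L.tor t * L.eps l * (L.rho w' a' * L.tor t' * L.eps l')
        = L.rho w a * (L.tor t * (L.eps l * L.rho w' a')) * L.tor t' * L.eps l' := by
      simp only [mul_assoc]
    rw [e, L.eps_rho, ← mul_assoc (L.tor t), L.tor_rho] at h2
    have e2 : L.rho w a * (L.rho ((t : F) • (l.1 *ᵥ w')) ((t : F) ^ 2 * a') * L.tor t * L.eps l)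
        * L.tor t' * L.eps l'
        = (L.rho w a * L.rho ((t : F) • (l.1 *ᵥ w')) ((t : F) ^ 2 * a')) * L.tor t *
          (L.eps l * L.tor t') * L.eps l' := by
      simp only [mul_assoc]
    rw [e2, ← L.tor_eps, L.rho_mul] at h2
    have e3 : ∀ x : P, x * L.tor t * (L.tor t' * L.eps l) * L.eps l'
        = x * L.tor (t * t') * L.eps (l * l') := by
      intro x
      simp only [map_mul, mul_assoc]
    rw [e3] at h2
    exact ⟨_, _, _, h2⟩
  inv_mem' := by
    rintro t ⟨w, a, l, h⟩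
    have h2 := S.inv_mem h
    rw [_root_.mul_inv_rev, _root_.mul_inv_rev, L.rho_inv, ← map_inv, ← map_inv, ← mul_assoc, ← L.tor_eps,
      mul_assoc, L.eps_rho, ← mul_assoc, L.tor_rho] at h2
    exact ⟨_, _, _, h2⟩

/-- "`S` contains no full root subgroup": neither `Z = {rho 0 a}` nor a `P`-conjugate of a root
subgroup `{eps (tv w c)}` of the Levi factor. -/
def RF (S : Subgroup P) : Prop :=
  (∃ a, L.rho 0 a ∉ S) ∧
    ∀ (x : P) (w : Fin m ⊕ Fin m → F), w ≠ 0 → ∃ c, x * L.eps (tv w c) * x⁻¹ ∉ S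

end Loc

/-- The embedding of the symplectic space of dimension `2m` as `⟨eL 0, eR 0⟩^⊥`. -/
def iota (w : Fin m ⊕ Fin m → F) : Fin (m + 1) ⊕ Fin (m + 1) → F :=
  Sum.elim (Fin.cases 0 (fun j => w (Sum.inl j))) (Fin.cases 0 (fun j => w (Sum.inr j)))

/-- The stabiliser in `Sp_{2m+2}` of the point `⟨eL 0⟩`. -/
def Pe (m : ℕ) (F : Type*) [Field F] : Subgroup (Matrix.symplecticGroup (Fin (m + 1)) F) :=
  Cfsg.stabilizing (Cfsg.spToMat (m + 1) F)
    ((Submodule.span F {(eL 0 : Fin (m + 1) ⊕ Fin (m + 1) → F)} : Submodule F _) : Set _)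

/-- `D^⊥` with respect to the biadditive form `(v,w) mod K`. -/
def perp (K : AddSubgroup F) (D : AddSubgroup (Fin m ⊕ Fin m → F)) :
    AddSubgroup (Fin m ⊕ Fin m → F) where
  carrier := {v | ∀ w ∈ D, Cfsg.sympForm m F v w ∈ K}
  zero_mem' := fun w _ => by rw [sympForm_zero_left]; exact K.zero_mem
  add_mem' := fun {a b} ha hb w hw => by rw [sympForm_add_left]; exact K.add_mem (ha w hw) (hb w hw)
  neg_mem' := fun {a} ha w hw => by rw [sympForm_neg_left]; exact K.neg_mem (ha w hw)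

end Cfsg.Agent.Lib.Helper14.MinSp
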