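import Mathlib
import Cfsg.Agent.Lib.Helper14.MinSp.Defs
import Cfsg.Agent.Lib.Helper91.MinSp.LOC
import Cfsg.Agent.Lib.Helper5.SpParabolic
import Cfsg.Agent.Lib.Helper5.SpCenter

set_option autoImplicit false

namespace Cfsg.Agent.Lib.Helper14.MinSp

open Matrix Cfsg.Agent.Lib.Helper13 Cfsg.Agent.Lib.Helper5
open Cfsg.Agent.Lib.Helper91.MinSp

variable {F : Type*} [Field F] {m : ℕ}

local notation "V" => Fin m ⊕ Fin m → F
local notation "Sp" => Matrix.symplecticGroup (Fin m) F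

lemma sieg_mulVec (u w : V) (huw : Cfsg.sympForm m F u w = 0) (a : F) (x : V) :
    (sieg u w a).1 *ᵥ x = x + Cfsg.sympForm m F x u • w + Cfsg.sympForm m F x w • u
      + (a * Cfsg.sympForm m F x u) • u := by
  have hwu : Cfsg.sympForm m F w u = 0 := by rw [sympForm_swap, huw, neg_zero]
  unfold sieg
  rw [sp_mul_mulVec, sp_mul_mulVec, sp_mul_mulVec, tv_mulVec, tv_mulVec, tv_mulVec, tv_mulVec]
  simp only [sympForm_add_left, sympForm_add_right, sympForm_smul_left, sympForm_neg_left,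
    sympForm_self, huw, hwu,
    mul_zero, add_zero, zero_add, smul_add, one_mul, neg_mul, neg_smul, neg_zero]
  module

lemma sieg_conj (g : Sp) (u w : V) (a : F) :
    g * sieg u w a * g⁻¹ = sieg (g.1 *ᵥ u) (g.1 *ᵥ w) a := by
  unfold sieg
  rw [← tv_conj, ← tv_conj, ← tv_conj, ← Matrix.mulVec_add, ← tv_conj]
  group

lemma sieg_zero (u : V) (a : F) : sieg u 0 a = tv u a := by
  unfold sieg
  rw [add_zero, tv_zero_left, mul_one, tv_mul_tv, tv_mul_tv]
  simp

lemma sieg_add_smul (h2 : (2 : F) = 0) (u w : V) (huw : Cfsg.sympForm m F u w = 0) (τ a : F) :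
    sieg u (w + τ • u) a = sieg u w a := by
  apply sp_ext
  intro x
  rw [sieg_mulVec u w huw, sieg_mulVec u (w + τ • u)
    (by rw [sympForm_add_right, sympForm_smul_right, sympForm_self, huw]; simp)]
  rw [sympForm_add_right, sympForm_smul_right]
  have : (Cfsg.sympForm m F x u * τ + τ * Cfsg.sympForm m F x u) = 0 := by
    linear_combination (τ * Cfsg.sympForm m F x u) * h2
  have h3 : (Cfsg.sympForm m F x u * τ + τ * Cfsg.sympForm m F x u) • u = 0 := by
    rw [this, zero_smul]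
  have h4 : x + Cfsg.sympForm m F x u • (w + τ • u)
      + (Cfsg.sympForm m F x w + τ * Cfsg.sympForm m F x u) • u
      + (a * Cfsg.sympForm m F x u) • u
      = x + Cfsg.sympForm m F x u • w + Cfsg.sympForm m F x w • u
        + (a * Cfsg.sympForm m F x u) • u
        + (Cfsg.sympForm m F x u * τ + τ * Cfsg.sympForm m F x u) • u := by
    module
  rw [h4, h3, add_zero]

lemma iota_zero : iota (0 : V) = 0 := by
  funext i
  rcases i with i | i <;> refine Fin.cases ?_ (fun j => ?_) i <;> simp [iota]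

lemma iota_ne_zero {w : V} (hw : w ≠ 0) : iota w ≠ 0 := by
  intro h
  apply hw
  funext i
  rcases i with i | i
  · have := congrFun h (Sum.inl i.succ)
    simpa [iota] using this
  · have := congrFun h (Sum.inr i.succ)
    simpa [iota] using this

/-- Vectors orthogonal to `eL 0`. -/
lemma exists_iota_of_orth (x : Fin (m + 1) ⊕ Fin (m + 1) → F)
    (hx : Cfsg.sympForm (m + 1) F (eL 0) x = 0) : ∃ (w : V) (τ : F), x = iota w + τ • eL 0 := by
  have h0 : x (Sum.inr 0) = 0 := by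
    have := sympForm_eL_right x (0 : Fin (m + 1))
    rw [sympForm_swap, hx, neg_zero] at this
    exact this.symm
  refine ⟨fun i => Sum.elim (fun j => x (Sum.inl j.succ)) (fun j => x (Sum.inr j.succ)) i,
    x (Sum.inl 0), ?_⟩
  funext i
  rcases i with i | i <;> refine Fin.cases ?_ (fun j => ?_) i <;> simp [iota, eL, h0]

lemma sp_mulVec_ne_zero' (A : Sp) {v : V} (hv : v ≠ 0) : A.1 *ᵥ v ≠ 0 := by
  intro h
  apply hv
  have := sp_inv_mulVec_mulVec A v
  rw [h, Matrix.mulVec_zero] at this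
  exact this.symm

lemma exists_sp_map {u u' : V} (hu : u ≠ 0) (hu' : u' ≠ 0) : ∃ g : Sp, g.1 *ᵥ u = u' := by
  obtain ⟨A, -, hA⟩ := exists_tv_vec (⊤ : Submodule F V) (by
    intro x _ hx
    by_contra hcon
    push Not at hcon
    exact hx (sympForm_nondeg x (fun v => hcon v trivial))) (u := u) (u' := u') trivial trivial hu hu'
  exact ⟨A, hA⟩

/-- the conjugate `g⁻¹ H g` -/
def cj (g : Sp) (H : Subgroup Sp) : Subgroup Sp := H.comap (MulAut.conj g).toMonoidHom

lemma mem_cj (g : Sp) (H : Subgroup Sp) (x : Sp) : x ∈ cj g H ↔ g * x * g⁻¹ ∈ H := Iff.rfl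

lemma index_cj (g : Sp) (H : Subgroup Sp) : (cj g H).index = H.index :=
  Subgroup.index_comap_of_surjective H (MulAut.conj g).surjective

lemma tv_mem_cj (g : Sp) (H : Subgroup Sp) (v : V) (c : F) :
    tv v c ∈ cj g H ↔ tv (g.1 *ᵥ v) c ∈ H := by
  rw [mem_cj, tv_conj]

lemma relIndex_le_index' {G : Type*} [Group G] [Finite G] (H K : Subgroup G) :
    H.relIndex K ≤ H.index := by
  have h1 := Subgroup.index_inf_le (H := H) (K := K)
  rw [← Subgroup.relIndex_mul_index (inf_le_right : H ⊓ K ≤ K), Subgroup.inf_relIndex_right] at h1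
  exact Nat.le_of_mul_le_mul_right h1 (Nat.pos_of_ne_zero K.index_ne_zero_of_finite)

instance [Fintype F] : Finite Sp := Subtype.finite

/-- The local set-up at the base point. -/
lemma loc_setup [Fintype F] (H : Subgroup (Matrix.symplecticGroup (Fin (m + 1)) F)) :
    ∃ L : Loc m F (Pe m F),
      (H.subgroupOf (Pe m F)).index ≤ H.index ∧
      (∀ w a, L.rho w a ∈ H.subgroupOf (Pe m F) ↔ sieg (eL 0) (iota w) a ∈ H) ∧
      (∀ a, L.rho 0 a ∈ H.subgroupOf (Pe m F) ↔ tv (eL 0) a ∈ H) ∧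
      (∀ w c, L.eps (tv w c) ∈ H.subgroupOf (Pe m F) ↔ tv (iota w) c ∈ H) ∧
      ((∀ v : Fin (m + 1) ⊕ Fin (m + 1) → F, v ≠ 0 → ∃ c, tv v c ∉ H) →
        L.RF (H.subgroupOf (Pe m F))) := by
  obtain ⟨L, h1, h2⟩ := exists_loc m F
  have e1 : ∀ w a, L.rho w a ∈ H.subgroupOf (Pe m F) ↔ sieg (eL 0) (iota w) a ∈ H := by
    intro w a
    rw [Subgroup.mem_subgroupOf, h1]
  have e2 : ∀ a, L.rho 0 a ∈ H.subgroupOf (Pe m F) ↔ tv (eL 0) a ∈ H := by
    intro a
    rw [e1, iota_zero, sieg_zero]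
  refine ⟨L, relIndex_le_index' H (Pe m F), e1, e2, ?_, ?_⟩
  · intro w c
    rw [Subgroup.mem_subgroupOf, h2]
  · intro hRF
    refine ⟨?_, ?_⟩
    · obtain ⟨c, hc⟩ := hRF (eL 0) (eL_ne_zero 0)
      exact ⟨c, fun h => hc ((e2 c).1 h)⟩
    · intro x w hw
      obtain ⟨c, hc⟩ := hRF ((x : Matrix.symplecticGroup (Fin (m + 1)) F).1 *ᵥ iota w)
        (sp_mulVec_ne_zero' _ (iota_ne_zero hw))
      refine ⟨c, fun h => hc ?_⟩
      rw [Subgroup.mem_subgroupOf] at h
      simp only [Subgroup.coe_mul, Subgroup.coe_inv, h2, tv_conj] at h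
      exact h

end Cfsg.Agent.Lib.Helper14.MinSp
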