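import Mathlib
import Cfsg.Agent.Lib.Helper14.MinSp.Defs
import Cfsg.Agent.Lib.Helper91.MinSp.IDX
import Cfsg.Agent.Lib.Helper91.MinSp.INV
import Cfsg.Agent.Lib.Helper91.MinSp.TORUS
import Cfsg.Agent.Lib.Helper91.MinSp.O2
import Cfsg.Agent.Lib.Helper11.MinSp.S1c
import Cfsg.Agent.Lib.Helper1.MinSp.PERF
import Cfsg.Agent.Lib.Helper5.SpParabolic

set_option autoImplicit false

namespace Cfsg.Agent.Lib.Helper14.MinSp

open Matrix Module Cfsg.Agent.Lib.Helper13 Cfsg.Agent.Lib.Helper5
open Cfsg.Agent.Lib.Helper91.MinSp Cfsg.Agent.Lib.Helper11.MinSp Cfsg.Agent.Lib.Helper1.MinSp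

variable {F : Type*} [Field F] {m : ℕ}

lemma NN_le {q M I : ℕ} (h : q ^ (2 * M) ≤ (q - 1) * I + 1) : NN q M ≤ I := by
  unfold NN
  apply Nat.div_le_of_le_mul
  omega

/-- in dimension 2, `w₀^⊥ = F w₀` -/
lemma orth_dim_two (w0 y : Fin 1 ⊕ Fin 1 → F) (hw0 : w0 ≠ 0)
    (h : Cfsg.sympForm 1 F y w0 = 0) : ∃ t : F, y = t • w0 := by
  rw [sympForm_eq_sum] at h
  simp only [Finset.univ_unique, Fin.default_eq_zero, Fin.isValue, Finset.sum_singleton] at h
  by_cases h1 : w0 (Sum.inl 0) = 0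
  · have h2 : w0 (Sum.inr 0) ≠ 0 := by
      intro h2
      apply hw0
      funext i
      rcases i with i | i <;> (have : i = 0 := Subsingleton.elim _ _) <;> subst this <;>
        simp [h1, h2]
    refine ⟨y (Sum.inr 0) / w0 (Sum.inr 0), ?_⟩
    rw [h1] at h
    have h3 : y (Sum.inl 0) = 0 := by
      have : y (Sum.inl 0) * w0 (Sum.inr 0) = 0 := by linear_combination -h
      exact (mul_eq_zero.1 this).resolve_right h2
    funext i
    rcases i with i | i <;> (have : i = 0 := Subsingleton.elim _ _) <;> subst this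
    · simp [h1, h3]
    · simp [h2]
  · refine ⟨y (Sum.inl 0) / w0 (Sum.inl 0), ?_⟩
    funext i
    rcases i with i | i <;> (have : i = 0 := Subsingleton.elim _ _) <;> subst this
    · simp [h1]
    · simp only [Pi.smul_apply, smul_eq_mul]
      field_simp
      linear_combination h

section loc

variable {P : Type*} [Group P] [Finite P] (L : Loc m F P) (S : Subgroup P)

theorem local_odd4 [Fintype F] (h2 : (2 : F) ≠ 0) (hm : 1 ≤ m)
    (hexc : ¬ (m = 1 ∧ Fintype.card F = 3)) (hRF : L.RF S)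
    (hA : ∀ a, L.rho 0 a ∈ S → a = 0) :
    NN (Fintype.card F) (m + 1) ≤ S.index := by
  classical
  set q := Fintype.card F with hqdef
  have hq2 : q ≠ 2 := by
    intro h
    apply h2
    have := Nat.cast_card_eq_zero F
    rw [← hqdef, h] at this
    exact_mod_cast this
  have hq1 : 1 < q := Fintype.one_lt_card
  have hq : 3 ≤ q := by omega
  have idx := index_formula L S
  rw [← hqdef] at idx
  have hA1 : Nat.card (L.A S) = 1 := by
    have : L.A S = ⊥ := by
      rw [eq_bot_iff]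
      intro a ha
      exact hA a ha
    rw [this]
    simp
  rw [hA1, mul_one] at idx
  have f2 : ∀ w ∈ L.Bb S, ∀ w' ∈ L.Bb S, Cfsg.sympForm m F w w' = 0 := by
    intro w hw w' hw'
    have := hA _ (two_form_mem_A L S w w' hw hw')
    exact (mul_eq_zero.1 this).resolve_left h2
  set Y : Submodule F (Fin m ⊕ Fin m → F) := Submodule.span F (L.Bb S : Set _) with hY
  have hYti : ∀ u ∈ Y, ∀ v ∈ Y, Cfsg.sympForm m F u v = 0 := by
    intro u hu v hv
    induction hu using Submodule.span_induction with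
    | mem u hu =>
      induction hv using Submodule.span_induction with
      | mem v hv => exact f2 u hu v hv
      | zero => exact sympForm_zero_right u
      | add a b _ _ ha hb => rw [sympForm_add_right, ha, hb, add_zero]
      | smul c a _ ha => rw [sympForm_smul_right, ha, mul_zero]
    | zero => exact sympForm_zero_left v
    | add a b _ _ ha hb => rw [sympForm_add_left, ha, hb, add_zero]
    | smul c a _ ha => rw [sympForm_smul_left, ha, mul_zero]
  have hBY : L.Bb S ≤ Y.toAddSubgroup := fun w hw => Submodule.subset_span hw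
  have hcardY : Nat.card Y.toAddSubgroup = q ^ finrank F Y := by
    have := Module.natCard_eq_pow_finrank (K := F) (V := Y)
    rw [Nat.card_eq_fintype_card (α := F)] at this
    exact this
  have hb_dvd : Nat.card (L.Bb S) ∣ q ^ finrank F Y := by
    rw [← hcardY]; exact AddSubgroup.card_dvd_of_le hBY
  have hb_le : Nat.card (L.Bb S) ≤ q ^ finrank F Y :=
    Nat.le_of_dvd (pow_pos (by omega) _) hb_dvd
  have hlam_dvd : Nat.card (L.Lam S) ∣ q - 1 := by
    have := Subgroup.card_subgroup_dvd_card (L.Lam S)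
    rwa [Nat.card_units, Nat.card_eq_fintype_card (α := F)] at this
  have hlam_le : Nat.card (L.Lam S) ≤ q - 1 := Nat.le_of_dvd (by omega) hlam_dvd
  have hS1Bb : ∀ l ∈ L.S1 S, ∀ y, y ∈ L.Bb S ↔ l.1 *ᵥ y ∈ L.Bb S := by
    rintro l ⟨w, a, hl⟩ y
    have := Bb_invariant L S w a 1 l (by simpa using hl) y
    simpa using this
  have hS1Y : ∀ l ∈ L.S1 S, ∀ x ∈ Y, l.1 *ᵥ x ∈ Y := by
    intro l hl x hx
    induction hx using Submodule.span_induction with
    | mem x hx => exact Submodule.subset_span ((hS1Bb l hl x).1 hx)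
    | zero => rw [Matrix.mulVec_zero]; exact Y.zero_mem
    | add a b _ _ ha hb => rw [Matrix.mulVec_add]; exact Y.add_mem ha hb
    | smul c a _ ha => rw [Matrix.mulVec_smul]; exact Y.smul_mem c ha
  have hi3 : 3 ≤ (L.S1 S).index :=
    three_le_index hm hq hexc _ (S1_ne_top_odd L S h2 hm hexc hRF)
  have hlam_pos : 0 < Nat.card (L.Lam S) := Nat.card_pos
  have hb_pos : 0 < Nat.card (L.Bb S) := Nat.card_pos
  obtain ⟨r, hr⟩ : ∃ r, q = r + 3 := ⟨q - 3, by omega⟩
  by_cases hY0 : Y = ⊥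
  · -- k = 0
    have hb1 : Nat.card (L.Bb S) = 1 := by
      have : finrank F Y = 0 := by rw [hY0]; simp
      rw [this, pow_zero] at hb_le
      omega
    rw [hb1, one_mul] at idx
    apply NN_le
    have h3 : q ^ (2 * m + 1) * (q - 1) * 3 ≤ S.index * (q - 1) := by
      calc q ^ (2 * m + 1) * (q - 1) * 3 ≤ q ^ (2 * m + 1) * (q - 1) * (L.S1 S).index :=
            Nat.mul_le_mul_left _ hi3
        _ = S.index * Nat.card (L.Lam S) := idx.symm
        _ ≤ S.index * (q - 1) := Nat.mul_le_mul_left _ hlam_le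
    have h4 : q ^ (2 * (m + 1)) = q ^ (2 * m + 1) * q := by ring
    rw [h4]
    have h5 : q ≤ (q - 1) * 3 := by omega
    calc q ^ (2 * m + 1) * q ≤ q ^ (2 * m + 1) * ((q - 1) * 3) := Nat.mul_le_mul_left _ h5
      _ = q ^ (2 * m + 1) * (q - 1) * 3 := by ring
      _ ≤ S.index * (q - 1) := h3
      _ ≤ (q - 1) * S.index + 1 := by rw [mul_comm]; omega
  by_cases hm2 : 2 ≤ m
  · -- k ≥ 1, m ≥ 2
    have hi := index_stab_ti_pow hm2 Y hY0 hYti (L.S1 S) hS1Y
    rw [← hqdef] at hi
    set k := finrank F Y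
    have h3 : q ^ (2 * m + 1) * (q - 1) * q ^ (k + 1) ≤ S.index * (q ^ k * (q - 1)) := by
      calc q ^ (2 * m + 1) * (q - 1) * q ^ (k + 1)
          ≤ q ^ (2 * m + 1) * (q - 1) * (L.S1 S).index := Nat.mul_le_mul_left _ hi
        _ = S.index * (Nat.card (L.Bb S) * Nat.card (L.Lam S)) := idx.symm
        _ ≤ S.index * (q ^ k * (q - 1)) := Nat.mul_le_mul_left _ (Nat.mul_le_mul hb_le hlam_le)
    have h4 : q ^ (2 * m + 1) * (q - 1) * q ^ (k + 1) = q ^ (2 * (m + 1)) * (q ^ k * (q - 1)) := by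
      ring
    rw [h4] at h3
    have h5 : q ^ (2 * (m + 1)) ≤ S.index :=
      Nat.le_of_mul_le_mul_right h3 (Nat.mul_pos (pow_pos (by omega) _) (by omega))
    apply NN_le
    calc q ^ (2 * (m + 1)) ≤ S.index := h5
      _ = 1 * S.index := (one_mul _).symm
      _ ≤ (q - 1) * S.index := Nat.mul_le_mul_right _ (by omega)
      _ ≤ _ := Nat.le_succ _
  -- m = 1
  obtain rfl : m = 1 := by omega
  have hq3 : q ≠ 3 := fun h => hexc ⟨rfl, h⟩
  have hq4 : q ≠ 4 := by
    intro h
    apply h2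
    have h4 := Nat.cast_card_eq_zero F
    rw [← hqdef, h] at h4
    have h5 : (2 : F) * 2 = 0 := by
      have : ((4 : ℕ) : F) = 2 * 2 := by norm_num
      rw [← this]; exact h4
    exact mul_self_eq_zero.1 h5
  have hq5 : 5 ≤ q := by omega
  obtain ⟨w0, hw0B, hw00⟩ : ∃ w0 ∈ L.Bb S, w0 ≠ 0 := by
    by_contra hcon
    push Not at hcon
    apply hY0
    rw [hY, Submodule.span_eq_bot]
    exact hcon
  have hw0Y : w0 ∈ Y := Submodule.subset_span hw0B
  have hYspan : Y = Submodule.span F {w0} := by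
    apply le_antisymm
    · intro y hy
      obtain ⟨t, rfl⟩ := orth_dim_two w0 y hw00 (hYti y hy w0 hw0Y)
      exact Submodule.smul_mem _ _ (Submodule.subset_span rfl)
    · rw [Submodule.span_singleton_le_iff_mem]; exact hw0Y
  have hk1 : finrank F Y = 1 := by rw [hYspan]; exact finrank_span_singleton hw00
  rw [hk1, pow_one] at hb_dvd hcardY
  set K := Cfsg.stabilizing (Cfsg.spToMat 1 F) (Y : Set (Fin 1 ⊕ Fin 1 → F)) with hK
  have hKidx : K.index = q + 1 := by
    have h := card_sp_stabilizing_mul (F := F) 1 1 Y hk1 hYti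
    simp only [Finset.univ_unique, Fin.default_eq_zero, Fin.isValue, Finset.prod_singleton,
      Fin.val_zero, pow_zero, pow_one, Nat.sub_zero, mul_one] at h
    rw [← hqdef] at h
    have h3 := Subgroup.index_mul_card K
    have hpos : 0 < Nat.card K := Nat.card_pos
    have h4 : Nat.card K * (q ^ 2 - 1) = Nat.card K * ((q - 1) * K.index) := by
      rw [h, ← h3]; ring
    have h5 := Nat.eq_of_mul_eq_mul_left hpos h4
    have h6 : q ^ 2 - 1 = (q - 1) * (q + 1) := by
      rw [hr]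
      simp only [Nat.add_sub_cancel, show r + 3 - 1 = r + 2 by omega]
      have : (r + 3) ^ 2 = (r + 2) * (r + 3 + 1) + 1 := by ring
      omega
    rw [h6] at h5
    exact (Nat.eq_of_mul_eq_mul_left (by omega) h5).symm
  have hS1K : L.S1 S ≤ K := by
    intro l hl v
    constructor
    · intro hv; exact hS1Y l hl v hv
    · intro hv
      have := hS1Y l⁻¹ ((L.S1 S).inv_mem hl) _ hv
      have e : (l⁻¹).1 *ᵥ (l.1 *ᵥ v) = v := sp_inv_mulVec_mulVec l v
      change (l⁻¹).1 *ᵥ (l.1 *ᵥ v) ∈ Y at this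
      rwa [e] at this
  have hi1 := Subgroup.relIndex_mul_index hS1K
  rw [hKidx] at hi1
  set j := (L.S1 S).relIndex K with hj
  obtain ⟨b', hb'⟩ := hb_dvd
  obtain ⟨l', hl'⟩ := hlam_dvd
  set b := Nat.card (L.Bb S) with hb
  set lam := Nat.card (L.Lam S) with hlam
  have hI : S.index = q ^ 2 * (q + 1) * (j * b' * l') := by
    have h3 : S.index * (b * lam) = (q ^ 2 * (q + 1) * (j * b' * l')) * (b * lam) := by
      rw [idx, ← hi1]
      have e1 : q ^ (2 * 1 + 1) = q ^ 2 * q := by ring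
      rw [e1]
      nth_rewrite 2 [hb']
      rw [hl']
      ring
    exact Nat.eq_of_mul_eq_mul_right (Nat.mul_pos hb_pos hlam_pos) h3
  have hjpos : 0 < j * b' * l' := by
    rcases Nat.eq_zero_or_pos (j * b' * l') with h | h
    · rw [h, mul_zero] at hI
      exact absurd hI (Subgroup.index_ne_zero_of_finite)
    · exact h
  by_cases hbig : 2 ≤ j * b' * l'
  · apply NN_le
    have h3 : q ^ 2 * (q + 1) * 2 ≤ S.index := by
      rw [hI]; exact Nat.mul_le_mul_left _ hbig
    have h4 : (q - 1) * (q ^ 2 * (q + 1) * 2) ≤ (q - 1) * S.index := Nat.mul_le_mul_left _ h3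
    have h5 : q ^ (2 * (1 + 1)) ≤ (q - 1) * (q ^ 2 * (q + 1) * 2) := by
      rw [hr]
      simp only [show r + 3 - 1 = r + 2 by omega]
      ring_nf
      nlinarith [sq_nonneg r]
    omega
  -- the bad case
  exfalso
  have h1 : j * b' * l' = 1 := by omega
  have hl1 : l' = 1 := Nat.eq_one_of_mul_eq_one_left h1
  have hjb : j * b' = 1 := Nat.eq_one_of_mul_eq_one_right h1
  have hb1 : b' = 1 := Nat.eq_one_of_mul_eq_one_left hjb
  have hj1 : j = 1 := Nat.eq_one_of_mul_eq_one_right hjb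
  have hKS1 : K ≤ L.S1 S := Subgroup.relIndex_eq_one.1 hj1
  have hBbY : L.Bb S = Y.toAddSubgroup := by
    apply AddSubgroup.eq_of_le_of_card_ge hBY
    rw [hcardY, hb', hb1, mul_one]
  have hLam : L.Lam S = ⊤ := by
    apply Subgroup.eq_top_of_card_eq
    rw [Nat.card_units, Nat.card_eq_fintype_card (α := F), ← hqdef, hl', hl1, mul_one]
  obtain ⟨t0, ht0, ht1, ht2⟩ : ∃ t : F, t ≠ 0 ∧ t ≠ 1 ∧ t ≠ -1 := by
    by_contra hcon
    push Not at hcon
    have : (Finset.univ : Finset F) ⊆ {0, 1, -1} := by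
      intro x _
      by_cases hx : x = 0
      · simp [hx]
      by_cases hx1 : x = 1
      · simp [hx1]
      · simp [hcon x hx hx1]
    have h3 := Finset.card_le_card this
    have h4 : ({0, 1, -1} : Finset F).card ≤ 3 := Finset.card_le_three
    rw [Finset.card_univ] at h3
    omega
  have sq_eq_one_iff_of_side_cond : ∀ {x : F}, x ^ 2 = 1 → x = 1 ∨ x = -1 := by
    intro x hx
    have : (x - 1) * (x + 1) = 0 := by linear_combination hx
    rcases mul_eq_zero.1 this with h | h
    · left; linear_combination h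
    · right; linear_combination h
  have htsq : ((Units.mk0 t0 ht0 : Fˣ) : F) ^ 2 ≠ 1 := by
    intro h
    rcases sq_eq_one_iff_of_side_cond h with h | h
    · exact ht1 h
    · exact ht2 h
  obtain ⟨w, a, l, hs⟩ : Units.mk0 t0 ht0 ∈ L.Lam S := by rw [hLam]; trivial
  have hlK : l ∈ K := by
    intro v
    have h3 := Bb_invariant L S w a _ l hs v
    rw [hBbY] at h3
    change v ∈ Y ↔ l.1 *ᵥ v ∈ Y
    have h4 : (v ∈ Y ↔ t0 • (l.1 *ᵥ v) ∈ Y) := h3
    rw [h4, Submodule.smul_mem_iff _ ht0]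
  obtain ⟨x, hx⟩ := torus' L S _ htsq w a l (hKS1 hlK) hs
  obtain ⟨c, hc⟩ := hRF.2 x w0 hw00
  apply hc
  apply hx
  apply hKS1
  intro v
  change v ∈ Y ↔ (tv w0 c).1 *ᵥ v ∈ Y
  rw [tv_mulVec]
  exact (Y.add_mem_iff_left (Y.smul_mem _ hw0Y)).symm

end loc

end Cfsg.Agent.Lib.Helper14.MinSp
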