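import Mathlib
import Cfsg.Agent.Lib.Helper14.MinSp.Defs
import Cfsg.Agent.Lib.Helper5.SpNondegStab
import Cfsg.Agent.S0752

set_option autoImplicit false

namespace Cfsg.Agent.Lib.Helper14.MinSp

open Matrix Module Cfsg.Agent.Lib.Helper13 Cfsg.Agent.Lib.Helper5 Cfsg.Agent.Lib.Helper94

variable {F : Type*} [Field F] {m : ℕ}

lemma finrank_even_of_nondeg (W : Submodule F (Fin m ⊕ Fin m → F))
    (hW : ∀ u ∈ W, (∀ v ∈ W, Cfsg.sympForm m F u v = 0) → u = 0) :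
    ∃ d, finrank F W = 2 * d := by
  have hA : ((sympB m F).restrict W).IsAlt := fun x => sympB_isAlt m x.1
  obtain ⟨m', k', b, -, -, -, h4⟩ := Cfsg.Agent.S0752.result ((sympB m F).restrict W) hA
  have hk' : k' = 0 := by
    by_contra hne
    have j : Fin k' := ⟨0, Nat.pos_of_ne_zero hne⟩
    apply b.ne_zero (Sum.inr j)
    apply Subtype.ext
    apply hW _ (b (Sum.inr j)).2
    intro v hv
    have := h4 j ⟨v, hv⟩
    rw [← sympB_apply]
    exact this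
  subst hk'
  refine ⟨m', ?_⟩
  rw [Module.finrank_eq_card_basis b]
  simp
  omega

lemma arith_prod (q d e : ℕ) (hq : 1 ≤ q) :
    q ^ (2 * e * d) * ∏ i ∈ Finset.range d, (q ^ (2 * (i + 1)) - 1)
      ≤ ∏ i ∈ Finset.range d, (q ^ (2 * (e + i + 1)) - 1) := by
  have h1 : q ^ (2 * e * d) = ∏ _i ∈ Finset.range d, q ^ (2 * e) := by
    rw [Finset.prod_const, Finset.card_range, ← pow_mul]
  rw [h1, ← Finset.prod_mul_distrib]
  apply Finset.prod_le_prod'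
  intro i _
  have h2 : q ^ (2 * (e + i + 1)) = q ^ (2 * e) * q ^ (2 * (i + 1)) := by
    rw [← pow_add]; congr 1; ring
  rw [h2, Nat.mul_sub, mul_one]
  have : 1 ≤ q ^ (2 * e) := Nat.one_le_pow _ _ hq
  omega

/-- the order formula -/
def sOrd (q n : ℕ) : ℕ := q ^ (n ^ 2) * ∏ i ∈ Finset.range n, (q ^ (2 * (i + 1)) - 1)

lemma sOrd_add (q d e : ℕ) (hq : 1 ≤ q) :
    q ^ (4 * d * e) * (sOrd q d * sOrd q e) ≤ sOrd q (e + d) := by
  unfold sOrd
  rw [Finset.prod_range_add]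
  have h := arith_prod q d e hq
  have e1 : q ^ ((e + d) ^ 2) = q ^ (d ^ 2) * q ^ (e ^ 2) * q ^ (2 * e * d) := by
    rw [← pow_add, ← pow_add]; congr 1; ring
  have e2 : q ^ (4 * d * e) = q ^ (2 * e * d) * q ^ (2 * e * d) := by
    rw [← pow_add]; congr 1; ring
  rw [e1, e2]
  calc q ^ (2 * e * d) * q ^ (2 * e * d) *
        ((q ^ d ^ 2 * ∏ i ∈ Finset.range d, (q ^ (2 * (i + 1)) - 1)) *
          (q ^ e ^ 2 * ∏ i ∈ Finset.range e, (q ^ (2 * (i + 1)) - 1)))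
      = q ^ d ^ 2 * q ^ e ^ 2 * q ^ (2 * e * d) * ((∏ i ∈ Finset.range e, (q ^ (2 * (i + 1)) - 1)) *
          (q ^ (2 * e * d) * ∏ i ∈ Finset.range d, (q ^ (2 * (i + 1)) - 1))) := by ring
    _ ≤ q ^ d ^ 2 * q ^ e ^ 2 * q ^ (2 * e * d) * ((∏ i ∈ Finset.range e, (q ^ (2 * (i + 1)) - 1)) *
          ∏ i ∈ Finset.range d, (q ^ (2 * (e + i + 1)) - 1)) :=
        Nat.mul_le_mul_left _ (Nat.mul_le_mul_left _ h)

lemma arith_mN (q n : ℕ) (hq : 3 ≤ q) :
    (n + 2) * NN q (n + 2) ≤ q ^ (4 * (n + 1)) := by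
  have h1 : NN q (n + 2) * 2 ≤ q ^ (2 * (n + 2)) := by
    unfold NN
    calc (q ^ (2 * (n + 2)) - 1) / (q - 1) * 2 ≤ (q ^ (2 * (n + 2)) - 1) / (q - 1) * (q - 1) :=
          Nat.mul_le_mul_left _ (by omega)
      _ ≤ q ^ (2 * (n + 2)) - 1 := Nat.div_mul_le_self _ _
      _ ≤ _ := Nat.sub_le _ _
  have h2 : n + 2 ≤ 2 * q ^ (2 * n) := by
    have a1 : n + 1 < 2 ^ (n + 1) := Nat.lt_two_pow_self
    have a2 : 2 ^ n ≤ q ^ (2 * n) := by
      calc 2 ^ n ≤ q ^ n := Nat.pow_le_pow_left (by omega) n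
        _ ≤ q ^ (2 * n) := Nat.pow_le_pow_right (by omega) (by omega)
    rw [pow_succ] at a1
    omega
  have h3 : q ^ (4 * (n + 1)) = q ^ (2 * n) * q ^ (2 * (n + 2)) := by
    rw [← pow_add]; congr 1; ring
  have h4 : (n + 2) * NN q (n + 2) * 2 ≤ 2 * q ^ (4 * (n + 1)) := by
    calc (n + 2) * NN q (n + 2) * 2 = (n + 2) * (NN q (n + 2) * 2) := by ring
      _ ≤ (2 * q ^ (2 * n)) * q ^ (2 * (n + 2)) := Nat.mul_le_mul h2 h1
      _ = 2 * q ^ (4 * (n + 1)) := by rw [h3]; ring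
  omega

theorem index_stab_nondeg [Fintype F] (hm : 2 ≤ m) (hq : 3 ≤ Fintype.card F)
    (W : Submodule F (Fin m ⊕ Fin m → F)) (hW0 : W ≠ ⊥) (hW1 : W ≠ ⊤)
    (hW : ∀ u ∈ W, (∀ v ∈ W, Cfsg.sympForm m F u v = 0) → u = 0)
    (H : Subgroup (Matrix.symplecticGroup (Fin m) F))
    (hH : H ≤ Cfsg.stabilizing (Cfsg.spToMat m F) (W : Set (Fin m ⊕ Fin m → F))) :
    m * NN (Fintype.card F) m ≤ H.index := by
  have : Finite (Matrix.symplecticGroup (Fin m) F) := Subtype.finite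
  set q := Fintype.card F with hqdef
  obtain ⟨d, hd⟩ := finrank_even_of_nondeg W hW
  have hd0 : d ≠ 0 := by
    rintro rfl
    exact hW0 (Submodule.finrank_eq_zero.1 (by rw [hd]))
  have hdm : d < m := by
    have h1 : finrank F W < finrank F (Fin m ⊕ Fin m → F) :=
      Submodule.finrank_lt hW1
    rw [finrank_symp, hd] at h1
    omega
  obtain ⟨E⟩ := sp_stab_nondeg m d hdm.le W hd hW
  set K := Cfsg.stabilizing (Cfsg.spToMat m F) (W : Set (Fin m ⊕ Fin m → F)) with hK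
  have hcK : Nat.card K = sOrd q d * sOrd q (m - d) := by
    rw [Nat.card_congr E.toEquiv, Nat.card_prod, card_symplecticGroup, card_symplecticGroup]
    rfl
  have hcG : Nat.card (Matrix.symplecticGroup (Fin m) F) = sOrd q m := by
    rw [card_symplecticGroup]; rfl
  have h1 := Subgroup.index_mul_card K
  rw [hcK, hcG] at h1
  have h2 := sOrd_add q d (m - d) (by omega)
  rw [Nat.sub_add_cancel hdm.le, ← h1] at h2
  have hpos : 0 < sOrd q d * sOrd q (m - d) := by rw [← hcK]; exact Nat.card_pos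
  have h3 : q ^ (4 * d * (m - d)) ≤ K.index := Nat.le_of_mul_le_mul_right h2 hpos
  have h4 : K.index ≤ H.index :=
    Nat.le_of_dvd (Nat.pos_of_ne_zero Subgroup.index_ne_zero_of_finite) (Subgroup.index_dvd_of_le hH)
  obtain ⟨n, rfl⟩ : ∃ n, m = n + 2 := ⟨m - 2, by omega⟩
  have h5 := arith_mN q n hq
  have h6 : q ^ (4 * (n + 1)) ≤ q ^ (4 * d * (n + 2 - d)) := by
    apply Nat.pow_le_pow_right (by omega)
    obtain ⟨e, he⟩ : ∃ e, n + 2 - d = e + 1 := ⟨n + 2 - d - 1, by omega⟩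
    obtain ⟨d', rfl⟩ : ∃ d', d = d' + 1 := ⟨d - 1, by omega⟩
    rw [he]
    have : n + 1 = d' + e + 1 := by omega
    rw [this]
    nlinarith [Nat.zero_le (d' * e)]
  omega

end Cfsg.Agent.Lib.Helper14.MinSp
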