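import Mathlib
import Cfsg.Agent.Lib.Helper14.MinSp.Defs
import Cfsg.Agent.Lib.Helper14.MinSp.S1d
import Cfsg.Agent.Lib.Helper63.MinSp.S1a
import Cfsg.Agent.Lib.Helper11.MinSp.S1c
import Cfsg.Agent.Lib.Helper1.MinSp.S1r
import Cfsg.Agent.Lib.Helper5.SpParabolic
import Cfsg.Agent.S0765

set_option autoImplicit false

namespace Cfsg.Agent.Lib.Helper14.MinSp

open Matrix Module Cfsg.Agent.Lib.Helper13 Cfsg.Agent.Lib.Helper5 Cfsg.Agent.Lib.Helper94
open Cfsg.Agent.Lib.Helper63.MinSp Cfsg.Agent.Lib.Helper11.MinSp Cfsg.Agent.Lib.Helper1.MinSp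

variable {F : Type*} [Field F] {m : ℕ}

local notation "V" => Fin m ⊕ Fin m → F
local notation "Sp" => Matrix.symplecticGroup (Fin m) F

/-- the vectors whose full root subgroup lies in `H` -/
def RS (H : Subgroup Sp) : Set V := {x | ∀ c, tv x c ∈ H}

lemma RS_zero (H : Subgroup Sp) : (0 : V) ∈ RS H := fun c => by
  rw [tv_zero_left]; exact H.one_mem

lemma RS_smul {H : Subgroup Sp} {x : V} (hx : x ∈ RS H) (a : F) : a • x ∈ RS H := fun c => by
  rw [tv_smul]; exact hx _

lemma RS_map {H : Subgroup Sp} {x : V} (hx : x ∈ RS H) {h : Sp} (hh : h ∈ H) :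
    h.1 *ᵥ x ∈ RS H := fun c => by
  rw [← tv_conj]; exact H.mul_mem (H.mul_mem hh (hx c)) (H.inv_mem hh)

lemma closure_tvSet_le {H : Subgroup Sp} {W : Submodule F V} (hW : ∀ x ∈ W, x ∈ RS H) :
    Subgroup.closure (tvSet W) ≤ H := by
  rw [Subgroup.closure_le]
  rintro A ⟨w, hw, c, hA⟩
  have : A = tv w c := Subtype.ext hA
  rw [this]
  exact hW w hw c

lemma le_stabilizing {H : Subgroup Sp} (W : Submodule F V)
    (hinv : ∀ h ∈ H, ∀ x ∈ W, h.1 *ᵥ x ∈ W) :
    H ≤ Cfsg.stabilizing (Cfsg.spToMat m F) (W : Set V) := by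
  intro h hh v
  constructor
  · intro hv
    exact hinv h hh v hv
  · intro hv
    have := hinv h⁻¹ (H.inv_mem hh) _ hv
    have e : (h⁻¹).1 *ᵥ (h.1 *ᵥ v) = v := sp_inv_mulVec_mulVec h v
    change (h⁻¹).1 *ᵥ (h.1 *ᵥ v) ∈ W at this
    rwa [e] at this

lemma exists_decomp (W : Submodule F V)
    (hW : ∀ u ∈ W, (∀ v ∈ W, Cfsg.sympForm m F u v = 0) → u = 0) (x : V) :
    ∃ x1 ∈ W, ∃ x2, (∀ w ∈ W, Cfsg.sympForm m F x2 w = 0) ∧ x = x1 + x2 := by
  have hnd : ((sympB m F).restrict W).Nondegenerate := by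
    have hrefl : ((sympB m F).restrict W).IsRefl := by
      intro a b hab
      exact (sympB_isAlt m).isRefl a.1 b.1 hab
    rw [LinearMap.BilinForm.Nondegenerate, hrefl.nondegenerate_iff_separatingLeft]
    intro u hu
    apply Subtype.ext
    apply hW u.1 u.2
    intro v hv
    have := hu ⟨v, hv⟩
    rw [← sympB_apply]
    exact this
  have hc := LinearMap.BilinForm.isCompl_orthogonal_of_restrict_nondegenerate
    (sympB_isAlt m).isRefl hnd
  have hx : x ∈ W ⊔ (sympB m F).orthogonal W := by rw [hc.sup_eq_top]; trivial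
  obtain ⟨x1, h1, x2, h2, rfl⟩ := Submodule.mem_sup.1 hx
  refine ⟨x1, h1, x2, ?_, rfl⟩
  intro w hw
  have := LinearMap.BilinForm.mem_orthogonal_iff.1 h2 w hw
  rw [sympB_apply] at this
  rw [sympForm_swap, this, neg_zero]

/-- `W ⊆ RS H` and `W` nondegenerate. -/
def Good (H : Subgroup Sp) (W : Submodule F V) : Prop :=
  (∀ x ∈ W, x ∈ RS H) ∧ ∀ u ∈ W, (∀ v ∈ W, Cfsg.sympForm m F u v = 0) → u = 0

lemma Good.ex {H : Subgroup Sp} {W : Submodule F V} (h : Good H W) :
    ∀ u ∈ W, u ≠ 0 → ∃ a ∈ W, Cfsg.sympForm m F u a ≠ 0 := by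
  intro u hu hu0
  by_contra hcon
  push Not at hcon
  exact hu0 (h.2 u hu hcon)

lemma good_pair {H : Subgroup Sp} {x y : V} (hx : x ∈ RS H) (hy : y ∈ RS H)
    (hxy : Cfsg.sympForm m F x y ≠ 0) : Good H (Submodule.span F {x, y}) := by
  constructor
  · intro z hz
    obtain ⟨a, b, rfl⟩ := Submodule.mem_span_pair.1 hz
    exact fun c => rs_hyp H x y hx hy hxy a b c
  · intro u hu h
    obtain ⟨a, b, rfl⟩ := Submodule.mem_span_pair.1 hu
    have h1 := h x (Submodule.subset_span (by simp))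
    have h2 := h y (Submodule.subset_span (by simp))
    rw [sympForm_add_left, sympForm_smul_left, sympForm_smul_left, sympForm_self,
      sympForm_swap y x] at h1
    rw [sympForm_add_left, sympForm_smul_left, sympForm_smul_left, sympForm_self] at h2
    have hb : b = 0 := by
      have : b * Cfsg.sympForm m F x y = 0 := by linear_combination -h1
      exact (mul_eq_zero.1 this).resolve_right hxy
    have ha : a = 0 := by
      have : a * Cfsg.sympForm m F x y = 0 := by linear_combination h2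
      exact (mul_eq_zero.1 this).resolve_right hxy
    rw [ha, hb]; simp

lemma proj_mem [Fintype F] (hq : 3 ≤ Fintype.card F) {H : Subgroup Sp} {W : Submodule F V}
    (hW : Good H W) {x1 x2 : V} (h1 : x1 ∈ W) (h10 : x1 ≠ 0)
    (h2 : ∀ w ∈ W, Cfsg.sympForm m F x2 w = 0) (hx : x1 + x2 ∈ RS H) :
    (∀ w ∈ W, w ≠ 0 → x2 + w ∈ RS H) ∧ x2 ∈ RS H := by
  classical
  have ha : ∀ w ∈ W, w ≠ 0 → x2 + w ∈ RS H := by
    intro w hw hw0
    obtain ⟨A, hA, hAx⟩ := exists_tv_vec W hW.ex h1 hw h10 hw0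
    have h3 := RS_map hx (closure_tvSet_le hW.1 hA)
    rw [Matrix.mulVec_add, hAx, closure_tvSet_fixes W hA x2 h2, add_comm] at h3
    exact h3
  refine ⟨ha, ?_⟩
  obtain ⟨lam, hl0, hl1⟩ : ∃ lam : F, lam ≠ 0 ∧ lam ≠ 1 := by
    by_contra hcon
    push Not at hcon
    have : (Finset.univ : Finset F) ⊆ {0, 1} := by
      intro x _
      by_cases hx : x = 0
      · simp [hx]
      · simp [hcon x hx]
    have h3 := Finset.card_le_card this
    have h4 : ({0, 1} : Finset F).card ≤ 2 := Finset.card_le_two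
    rw [Finset.card_univ] at h3
    omega
  intro c
  exact rs_three H x2 x1 (h2 x1 h1) lam hl0 hl1 (hW.1 x1 h1) (ha x1 h1 h10)
    (ha _ (W.smul_mem _ h1) (smul_ne_zero hl0 h10)) c

lemma good_sup [Fintype F] {H : Subgroup Sp} {W E : Submodule F V}
    (hW : Good H W) (hE : Good H E) (hWE : ∀ w ∈ W, ∀ z ∈ E, Cfsg.sympForm m F w z = 0)
    {x2 : V} (hx2 : x2 ∈ E) (hx20 : x2 ≠ 0) (hx : ∀ w ∈ W, w ≠ 0 → x2 + w ∈ RS H) :
    Good H (W ⊔ E) := by
  constructor
  · intro u hu
    obtain ⟨w, hw, z, hz, rfl⟩ := Submodule.mem_sup.1 hu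
    by_cases hz0 : z = 0
    · rw [hz0, add_zero]; exact hW.1 w hw
    by_cases hw0 : w = 0
    · rw [hw0, zero_add]; exact hE.1 z hz
    obtain ⟨A, hA, hAx⟩ := exists_tv_vec E hE.ex hx2 hz hx20 hz0
    have h3 := RS_map (hx w hw hw0) (closure_tvSet_le hE.1 hA)
    rw [Matrix.mulVec_add, hAx, closure_tvSet_fixes E hA w (hWE w hw), add_comm] at h3
    exact h3
  · intro u hu h
    obtain ⟨w, hw, z, hz, rfl⟩ := Submodule.mem_sup.1 hu
    have hw0 : w = 0 := by
      apply hW.2 w hw
      intro w' hw'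
      have := h w' (Submodule.mem_sup_left hw')
      rw [sympForm_add_left, sympForm_swap z w', hWE w' hw' z hz, neg_zero, add_zero] at this
      exact this
    have hz0 : z = 0 := by
      apply hE.2 z hz
      intro z' hz'
      have := h z' (Submodule.mem_sup_right hz')
      rw [sympForm_add_left, hWE w hw z' hz', zero_add] at this
      exact this
    rw [hw0, hz0, add_zero]

theorem step1 [Fintype F] (hm : 2 ≤ m) (hq : 3 ≤ Fintype.card F)
    (H : Subgroup (Matrix.symplecticGroup (Fin m) F)) (hH : H ≠ ⊤)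
    (v : Fin m ⊕ Fin m → F) (hv : v ≠ 0) (hX : ∀ c, tv v c ∈ H) :
    NN (Fintype.card F) m ≤ H.index := by
  classical
  have hvRS : v ∈ RS H := hX
  set U : Submodule F V := Submodule.span F (RS H) with hU
  have hUinv : ∀ h ∈ H, ∀ x ∈ U, h.1 *ᵥ x ∈ U := by
    intro h hh x hx
    induction hx using Submodule.span_induction with
    | mem x hx => exact Submodule.subset_span (RS_map hx hh)
    | zero => rw [Matrix.mulVec_zero]; exact U.zero_mem
    | add x y _ _ hx hy => rw [Matrix.mulVec_add]; exact U.add_mem hx hy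
    | smul a x _ hx => rw [Matrix.mulVec_smul]; exact U.smul_mem a hx
  have hvU : v ∈ U := Submodule.subset_span hvRS
  by_cases hUtop : U = ⊤
  swap
  · -- CASE A
    by_cases hrad : ∀ u ∈ U, (∀ y ∈ U, Cfsg.sympForm m F u y = 0) → u = 0
    · have := index_stab_nondeg hm hq U (fun h => hv (by rw [h] at hvU; simpa using hvU)) hUtop hrad
        H (le_stabilizing U hUinv)
      have h2 : 1 * NN (Fintype.card F) m ≤ m * NN (Fintype.card F) m :=
        Nat.mul_le_mul_right _ (by omega)
      omega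
    · push Not at hrad
      obtain ⟨u0, hu0, hu0', hu00⟩ := hrad
      let R : Submodule F V :=
        { carrier := {u | u ∈ U ∧ ∀ y ∈ U, Cfsg.sympForm m F u y = 0}
          zero_mem' := ⟨U.zero_mem, fun y _ => sympForm_zero_left y⟩
          add_mem' := fun {a b} ha hb => ⟨U.add_mem ha.1 hb.1, fun y hy => by
            rw [sympForm_add_left, ha.2 y hy, hb.2 y hy, add_zero]⟩
          smul_mem' := fun c a ha => ⟨U.smul_mem c ha.1, fun y hy => by
            rw [sympForm_smul_left, ha.2 y hy, mul_zero]⟩ }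
      apply index_stab_ti (by omega) R
      · intro h
        have : u0 ∈ R := ⟨hu0, hu0'⟩
        rw [h] at this
        exact hu00 (by simpa using this)
      · intro a ha b hb
        exact ha.2 b hb.1
      · apply le_stabilizing
        intro h hh x hx
        refine ⟨hUinv h hh x hx.1, ?_⟩
        intro y hy
        have h1 := hx.2 _ (hUinv h⁻¹ (H.inv_mem hh) y hy)
        rw [← Cfsg.Agent.Lib.Helper13.sp_preserves h, sp_mulVec_inv_mulVec] at h1
        exact h1
  -- CASE B
  have hsep : ∀ x : V, x ≠ 0 → ∃ y ∈ RS H, Cfsg.sympForm m F x y ≠ 0 := by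
    intro x hx
    by_contra hcon
    push Not at hcon
    apply hx
    apply sympForm_nondeg
    intro y
    have hy : y ∈ U := by rw [hUtop]; trivial
    induction hy using Submodule.span_induction with
    | mem y hy => exact hcon y hy
    | zero => exact sympForm_zero_right x
    | add a b _ _ ha hb => rw [sympForm_add_right, ha, hb, add_zero]
    | smul c a _ ha => rw [sympForm_smul_right, ha, mul_zero]
  obtain ⟨W, hWgood, hWmax⟩ := Set.Finite.exists_maximalFor
    (fun W : Submodule F V => finrank F W) {W : Submodule F V | Good H W} (Set.toFinite _) ⟨⊥, by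
      constructor
      · intro x hx
        rw [Submodule.mem_bot] at hx
        rw [hx]; exact RS_zero H
      · intro u hu _
        simpa using hu⟩
  have hWgood : Good H W := hWgood
  have hmax : ∀ W' : Submodule F V, Good H W' → finrank F W' ≤ finrank F W := by
    intro W' hW'
    by_contra hlt
    push Not at hlt
    have := hWmax hW' hlt.le
    simp only at this
    omega
  -- (1)
  have hW0 : W ≠ ⊥ := by
    intro h
    obtain ⟨x, hx, hvx⟩ := hsep v hv
    have h1 := hmax _ (good_pair hvRS hx hvx)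
    rw [h, finrank_bot] at h1
    have h2 : Submodule.span F {v, x} = ⊥ := Submodule.finrank_eq_zero.1 (by omega)
    have h3 : v ∈ Submodule.span F {v, x} := Submodule.subset_span (by simp)
    rw [h2] at h3
    exact hv (by simpa using h3)
  -- (2)
  have hsplit : ∀ x ∈ RS H, x ∈ W ∨ ∀ w ∈ W, Cfsg.sympForm m F x w = 0 := by
    intro x hx
    by_contra hcon
    push Not at hcon
    obtain ⟨hxW, hxW'⟩ := hcon
    obtain ⟨x1, h1, x2, h2, rfl⟩ := exists_decomp W hWgood.2 x
    have h10 : x1 ≠ 0 := by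
      rintro rfl
      obtain ⟨w, hw, hne⟩ := hxW'
      rw [zero_add] at hne
      exact hne (h2 w hw)
    have h20 : x2 ≠ 0 := by
      rintro rfl
      rw [add_zero] at hxW
      exact hxW h1
    obtain ⟨ha, hb⟩ := proj_mem hq hWgood h1 h10 h2 hx
    obtain ⟨y, hy, hx2y⟩ := hsep x2 h20
    obtain ⟨y1, g1, y2, g2, rfl⟩ := exists_decomp W hWgood.2 y
    have hx2y2 : Cfsg.sympForm m F x2 y2 ≠ 0 := by
      rw [sympForm_add_right, h2 y1 g1, zero_add] at hx2y
      exact hx2y
    have hy2 : y2 ∈ RS H := by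
      by_cases hy10 : y1 = 0
      · rw [hy10, zero_add] at hy; exact hy
      · exact (proj_mem hq hWgood g1 hy10 g2 hy).2
    have hE := good_pair hb hy2 hx2y2
    have hWE : ∀ w ∈ W, ∀ z ∈ Submodule.span F {x2, y2}, Cfsg.sympForm m F w z = 0 := by
      intro w hw z hz
      obtain ⟨a, b, rfl⟩ := Submodule.mem_span_pair.1 hz
      rw [sympForm_add_right, sympForm_smul_right, sympForm_smul_right, sympForm_swap w x2,
        sympForm_swap w y2, h2 w hw, g2 w hw]
      simp
    have hx2E : x2 ∈ Submodule.span F {x2, y2} := Submodule.subset_span (by simp)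
    have hbig := good_sup hWgood hE hWE hx2E h20 ha
    have hlt : W < W ⊔ Submodule.span F {x2, y2} := by
      apply lt_of_le_of_ne le_sup_left
      intro heq
      have : x2 ∈ W := by rw [heq]; exact Submodule.mem_sup_right hx2E
      exact h20 (hWgood.2 x2 this h2)
    have := Submodule.finrank_lt_finrank_of_lt hlt
    have := hmax _ hbig
    omega
  -- (3)
  have hW1 : W ≠ ⊤ := by
    intro h
    apply hH
    rw [eq_top_iff, ← Cfsg.Agent.S0765.result m, Subgroup.closure_le]
    rintro A ⟨w, c, hA⟩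
    have : A = tv w c := Subtype.ext hA
    rw [this]
    exact hWgood.1 w (by rw [h]; trivial) c
  -- (4)
  have horb : ∀ h ∈ H, (∀ x ∈ W, h.1 *ᵥ x ∈ W) ∨
      (∀ x ∈ W, ∀ y ∈ W, Cfsg.sympForm m F (h.1 *ᵥ x) y = 0) := by
    intro h hh
    by_contra hcon
    push Not at hcon
    obtain ⟨⟨x, hx, hxW⟩, x', hx', y, hy, hne⟩ := hcon
    have r1 := (hsplit _ (RS_map (hWgood.1 x hx) hh)).resolve_left hxW
    have r2 : h.1 *ᵥ x' ∈ W := (hsplit _ (RS_map (hWgood.1 x' hx') hh)).resolve_right
      (fun hc => hne (hc y hy))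
    rcases hsplit _ (RS_map (hWgood.1 _ (W.add_mem hx hx')) hh) with r3 | r3
    · rw [Matrix.mulVec_add] at r3
      exact hxW (by simpa using W.sub_mem r3 r2)
    · have := r3 y hy
      rw [Matrix.mulVec_add, sympForm_add_left, r1 y hy, zero_add] at this
      exact hne this
  -- (5)
  have k1 := relIndex_stab_le W hW0 hWgood.2 H horb
  have k2 := index_stab_nondeg hm hq W hW0 hW1 hWgood.2
    (H ⊓ Cfsg.stabilizing (Cfsg.spToMat m F) (W : Set V)) inf_le_right
  rw [← Subgroup.relIndex_mul_index (inf_le_left : H ⊓ Cfsg.stabilizing (Cfsg.spToMat m F)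
    (W : Set V) ≤ H), Subgroup.inf_relIndex_left] at k2
  have k3 : m * NN (Fintype.card F) m ≤ m * H.index := k2.trans (Nat.mul_le_mul_right _ k1)
  exact Nat.le_of_mul_le_mul_left k3 (by omega)

end Cfsg.Agent.Lib.Helper14.MinSp
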