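import Mathlib
import Cfsg.Agent.Lib.Helper14.MinSp.Basic
import Cfsg.Agent.Lib.Helper14.MinSp.Step1
import Cfsg.Agent.Lib.Helper14.MinSp.O4
import Cfsg.Agent.Lib.Helper24.MinSp.G3
import Cfsg.Agent.Lib.Helper63.MinSp.BASE
import Cfsg.Agent.Lib.Helper11.MinSp.E
import Cfsg.Agent.Lib.Helper11.MinSp.O3

set_option autoImplicit false

namespace Cfsg.Agent.Lib.Helper14.MinSp

open Matrix Cfsg.Agent.Lib.Helper13 Cfsg.Agent.Lib.Helper5
open Cfsg.Agent.Lib.Helper24.MinSp Cfsg.Agent.Lib.Helper63.MinSp Cfsg.Agent.Lib.Helper11.MinSp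

variable {F : Type*} [Field F] {m : ℕ}

local notation "V" => Fin m ⊕ Fin m → F
local notation "Sp" => Matrix.symplecticGroup (Fin m) F

/-- `q` even. -/
theorem main_even [Fintype F] (h2 : (2 : F) = 0) (hq : 4 ≤ Fintype.card F) :
    ∀ m : ℕ, 1 ≤ m → ∀ H : Subgroup (Matrix.symplecticGroup (Fin m) F), H ≠ ⊤ →
      NN (Fintype.card F) m ≤ H.index := by
  intro m hm
  induction m, hm using Nat.le_induction with
  | base => exact fun H hH => base_even h2 hq H hH
  | succ m hm IH =>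
    intro H hH
    by_cases hfull : ∃ v : Fin (m + 1) ⊕ Fin (m + 1) → F, v ≠ 0 ∧ ∀ c, tv v c ∈ H
    · obtain ⟨v, hv, hX⟩ := hfull
      exact step1 (by omega) (by omega) H hH v hv hX
    push Not at hfull
    by_contra hlt
    apply absurd (global_even h2 hq (by omega : 2 ≤ m + 1) H ?_)
    · push Not
      exact hfull
    intro u w hu huw
    obtain ⟨g, hg⟩ := exists_sp_map (eL_ne_zero (0 : Fin (m + 1))) hu
    obtain ⟨L, i1, i2, -, -, i5⟩ := loc_setup (cj g H)
    have hRF := i5 (by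
      intro v hv
      obtain ⟨c, hc⟩ := hfull _ (sp_mulVec_ne_zero' g hv)
      exact ⟨c, fun h => hc ((tv_mem_cj g H v c).1 h)⟩)
    rcases local_even L _ h2 hq hm IH hRF with h | h
    · exact absurd (h.trans (i1.trans (index_cj g H).le)) hlt
    · -- STAR
      have hw' : Cfsg.sympForm (m + 1) F (eL 0) ((g⁻¹).1 *ᵥ w) = 0 := by
        rw [← Cfsg.Agent.Lib.Helper13.sp_preserves g, hg, sp_mulVec_inv_mulVec, huw]
      obtain ⟨w1, τ, hw1⟩ := exists_iota_of_orth _ hw'
      obtain ⟨a, ha⟩ := h w1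
      rw [i2, mem_cj, sieg_conj, hg] at ha
      refine ⟨a, ?_⟩
      have e : w = g.1 *ᵥ iota w1 + τ • u := by
        rw [← hg, ← Matrix.mulVec_smul, ← Matrix.mulVec_add, ← hw1, sp_mulVec_inv_mulVec]
      rw [e, sieg_add_smul h2]
      · exact ha
      · have : Cfsg.sympForm (m + 1) F u (g.1 *ᵥ iota w1 + τ • u) = 0 := by rw [← e]; exact huw
        rwa [sympForm_add_right, sympForm_smul_right, sympForm_self, mul_zero, add_zero] at this

/-- `q` odd. -/
theorem main_odd [Fintype F] (h2 : (2 : F) ≠ 0) (hm : 1 ≤ m)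
    (hexc : ¬ (m = 1 ∧ Fintype.card F = 3))
    (H : Subgroup (Matrix.symplecticGroup (Fin (m + 1)) F)) (hH : H ≠ ⊤) :
    NN (Fintype.card F) (m + 1) ≤ H.index := by
  have hq : 3 ≤ Fintype.card F := by
    have h1 : 1 < Fintype.card F := Fintype.one_lt_card
    by_contra hcon
    have h3 : Fintype.card F = 2 := by omega
    apply h2
    have := Nat.cast_card_eq_zero F
    rw [h3] at this
    exact_mod_cast this
  by_cases hfull : ∃ v : Fin (m + 1) ⊕ Fin (m + 1) → F, v ≠ 0 ∧ ∀ c, tv v c ∈ H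
  · obtain ⟨v, hv, hX⟩ := hfull
    exact step1 (by omega) hq H hH v hv hX
  push Not at hfull
  by_cases h0 : ∃ u : Fin (m + 1) ⊕ Fin (m + 1) → F, u ≠ 0 ∧ ∀ c, tv u c ∈ H → c = 0
  · obtain ⟨u, hu, hu0⟩ := h0
    obtain ⟨g, hg⟩ := exists_sp_map (eL_ne_zero (0 : Fin (m + 1))) hu
    obtain ⟨L, i1, -, i3, -, i5⟩ := loc_setup (cj g H)
    have hRF := i5 (by
      intro v hv
      obtain ⟨c, hc⟩ := hfull _ (sp_mulVec_ne_zero' g hv)
      exact ⟨c, fun h => hc ((tv_mem_cj g H v c).1 h)⟩)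
    have := local_odd4 L _ h2 hm hexc hRF (by
      intro a ha
      rw [i3, tv_mem_cj, hg] at ha
      exact hu0 a ha)
    exact this.trans (i1.trans (index_cj g H).le)
  · push Not at h0
    obtain ⟨L, i1, -, i3, i4, i5⟩ := loc_setup H
    have hRF := i5 hfull
    have := local_odd3 L _ h2 hm hRF (by
      obtain ⟨c, hc, hc0⟩ := h0 _ (eL_ne_zero (0 : Fin (m + 1)))
      exact ⟨c, hc0, (i3 c).2 hc⟩) (by
      intro w hw
      obtain ⟨c, hc, hc0⟩ := h0 _ (iota_ne_zero hw)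
      exact ⟨c, hc0, (i4 w c).2 hc⟩)
    exact this.trans i1

/-- The lower bound in `Sp`. -/
theorem main_sp [Fintype F] (hm : 2 ≤ m) (hq : 3 ≤ Fintype.card F)
    (hexc : ¬ (m = 2 ∧ Fintype.card F = 3)) (H : Subgroup Sp) (hH : H ≠ ⊤) :
    NN (Fintype.card F) m ≤ H.index := by
  by_cases h2 : (2 : F) = 0
  · have hq4 : 4 ≤ Fintype.card F := by
      by_contra hcon
      have h3 : Fintype.card F = 3 := by omega
      have h4 := Nat.cast_card_eq_zero F
      rw [h3] at h4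
      have h5 : (1 : F) = 0 := by
        have : ((3 : ℕ) : F) = 2 + 1 := by norm_num
        rw [this, h2, zero_add] at h4
        exact h4
      exact one_ne_zero h5
    exact main_even h2 hq4 m (by omega) H hH
  · obtain ⟨k, rfl⟩ : ∃ k, m = k + 1 := ⟨m - 1, by omega⟩
    exact main_odd h2 (by omega) (by omega) H hH

end Cfsg.Agent.Lib.Helper14.MinSp
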